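import Cfsg.Agent.Lib.Helper51.TI3.Main

/-!
# S3117 package GH2 (helper75): `lemCritHom : LemCritHom`
-/

set_option autoImplicit false

universe u

namespace Cfsg.Agent.Lib.Helper75.TI3

open Cfsg.Agent.Lib.Helper51.TI3

section
variable {X : Type u} [Group X] {W : Type u} {T : Type u} [Group W] [Group T]

theorem center_aut_mem (α : MulAut X) (h : X) (hh : h ∈ Subgroup.center X) :
    α h ∈ Subgroup.center X := by
  rw [Subgroup.mem_center_iff] at hh ⊢
  intro g
  have := congrArg α (hh (α⁻¹ g))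
  simpa using this

/-- The map induced on `W` by an automorphism of `X`. -/
noncomputable def indFun (D : CritData X W T) (α : MulAut X) : W → W :=
  fun w => D.π (α (Function.surjInv D.π_surj w))

theorem indFun_π (D : CritData X W T) (α : MulAut X) (x : X) :
    indFun D α (D.π x) = D.π (α x) := by
  unfold indFun
  set y := Function.surjInv D.π_surj (D.π x) with hy
  have h1 : D.π y = D.π x := Function.surjInv_eq D.π_surj (D.π x)
  have h2 : D.π (x⁻¹ * y) = 1 := by rw [map_mul, map_inv, h1, inv_mul_cancel]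
  have h3 : x⁻¹ * y ∈ Subgroup.center X := (D.π_ker _).mp h2
  have h4 : D.π (α (x⁻¹ * y)) = 1 := (D.π_ker _).mpr (center_aut_mem α _ h3)
  rw [map_mul, map_inv, map_mul, map_inv, inv_mul_eq_one] at h4
  exact h4.symm

/-- The automorphism induced on `W`. -/
noncomputable def indEquiv (D : CritData X W T) (α : MulAut X) : MulAut W where
  toFun := indFun D α
  invFun := indFun D α⁻¹
  left_inv := by
    intro w
    obtain ⟨x, rfl⟩ := D.π_surj w
    rw [indFun_π, indFun_π]; simp
  right_inv := by
    intro w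
    obtain ⟨x, rfl⟩ := D.π_surj w
    rw [indFun_π, indFun_π]; simp
  map_mul' := by
    intro a b
    obtain ⟨x, rfl⟩ := D.π_surj a
    obtain ⟨y, rfl⟩ := D.π_surj b
    rw [← map_mul, indFun_π, indFun_π, indFun_π, map_mul, map_mul]

theorem indEquiv_π (D : CritData X W T) (α : MulAut X) (x : X) :
    indEquiv D α (D.π x) = D.π (α x) := indFun_π D α x

/-- The induced action as a homomorphism. -/
noncomputable def indHom (D : CritData X W T) : MulAut X →* MulAut W where
  toFun := indEquiv D
  map_one' := by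
    ext w
    obtain ⟨x, rfl⟩ := D.π_surj w
    rw [indEquiv_π]; rfl
  map_mul' := by
    intro α β
    ext w
    obtain ⟨x, rfl⟩ := D.π_surj w
    rw [MulAut.mul_apply, indEquiv_π, indEquiv_π, indEquiv_π]; rfl

end

theorem lemCritHom : LemCritHom.{u} := by
  intro X _ _ W T _ _ _ _ D hX hΓ hZ
  have : Fact (Nat.Prime 2) := ⟨Nat.prime_two⟩
  have hsq : ∀ x : X, x ^ 2 ∈ Subgroup.center X := by
    intro x
    rw [← D.π_ker, map_pow, pow_two]
    exact D.Q.hW _
  set ρ := resAut (Subgroup.center X) (fun α h hh => center_aut_mem α h hh) with hρ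
  apply solvable_of_ker ρ hZ
  -- elements of ρ.ker fix Z pointwise
  have hfix : ∀ α ∈ ρ.ker, ∀ z ∈ Subgroup.center X, α z = z := by
    intro α hα z hz
    rw [MonoidHom.mem_ker] at hα
    have h1 := congrArg (fun β : MulAut ↥(Subgroup.center X) =>
      ((β ⟨z, hz⟩ : ↥(Subgroup.center X)) : X)) hα
    simpa [hρ, resAut_apply] using h1
  let Γ₀ : Subgroup (MulAut W) :=
    { carrier := {g | ∀ w, D.Q.sq (g w) = D.Q.sq w}
      mul_mem' := by
        intro a b ha hb w
        rw [MulAut.mul_apply, ha, hb]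
      one_mem' := by intro w; rfl
      inv_mem' := by
        intro a ha w
        have := ha (a⁻¹ w)
        rw [MulAut.apply_inv_self] at this
        exact this.symm }
  have hmem : ∀ α : ↥ρ.ker, ((indHom D).comp ρ.ker.subtype) α ∈ Γ₀ := by
    intro α w
    obtain ⟨x, rfl⟩ := D.π_surj w
    show D.Q.sq (indEquiv D α (D.π x)) = _
    rw [indEquiv_π, D.sq_π _ (hsq _), D.sq_π _ (hsq _)]
    congr 1
    apply Subtype.ext
    show ((α : MulAut X) x) ^ 2 = x ^ 2
    rw [← map_pow]
    exact hfix α α.2 _ (hsq x)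
  let f : ↥ρ.ker →* ↥Γ₀ := ((indHom D).comp ρ.ker.subtype).codRestrict Γ₀ hmem
  have hΓ₀ : Group.IsSolvable ↥Γ₀ := hΓ Γ₀ (fun g hg => hg)
  apply solvable_of_ker f hΓ₀
  -- the kernel is a 2-group
  obtain ⟨k, hk⟩ := (hX.to_subgroup (Subgroup.center X)).exists_card_eq
  have hp : IsPGroup 2 ↥f.ker := by
    intro g
    refine ⟨k, ?_⟩
    have hg : f g.1 = 1 := g.2
    have hg' : indEquiv D ((g.1 : ↥ρ.ker) : MulAut X) = 1 := by
      have := congrArg (Subtype.val) hg
      exact this
    have h1 : ∀ z ∈ Subgroup.center X, ((g.1 : ↥ρ.ker) : MulAut X) z = z := hfix _ g.1.2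
    have h2 : ∀ x, x⁻¹ * ((g.1 : ↥ρ.ker) : MulAut X) x ∈ Subgroup.center X := by
      intro x
      rw [← D.π_ker, map_mul, map_inv, ← indEquiv_π, hg']
      simp
    have h3 := aut_pow_card_eq_one (Subgroup.center X) _ h1 h2
    rw [hk] at h3
    apply Subtype.ext
    apply Subtype.ext
    simpa using h3
  have := hp.isNilpotent
  infer_instance

end Cfsg.Agent.Lib.Helper75.TI3
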